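import Cfsg.Agent.CosetEnum.Step
import Cfsg.Agent.CosetEnum.M83.EP0
import Cfsg.Agent.CosetEnum.M83.EP1
import Cfsg.Agent.CosetEnum.M83.EP2
import Cfsg.Agent.CosetEnum.M83.EP3
import Cfsg.Agent.CosetEnum.M83.EP4
import Cfsg.Agent.CosetEnum.M83.EP5
import Cfsg.Agent.CosetEnum.M83.EP6
import Cfsg.Agent.CosetEnum.M83.EP7
import Cfsg.Agent.CosetEnum.M83.EP8
import Cfsg.Agent.CosetEnum.M83.EP9
import Cfsg.Agent.CosetEnum.M83.EP10
import Cfsg.Agent.CosetEnum.M83.EP11
import Cfsg.Agent.CosetEnum.M83.EP12
import Cfsg.Agent.CosetEnum.M83.EP13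
import Cfsg.Agent.CosetEnum.M83.EP14
import Cfsg.Agent.CosetEnum.M83.EP15
import Cfsg.Agent.CosetEnum.M83.EP16
import Cfsg.Agent.CosetEnum.M83.EP17
import Cfsg.Agent.CosetEnum.M83.EP18
import Cfsg.Agent.CosetEnum.M83.EP19
import Cfsg.Agent.CosetEnum.M83.EP20
import Cfsg.Agent.CosetEnum.M83.EP21

/-! Certificates of coset enumerations and tables (generated, owner: helper28). -/

set_option autoImplicit false
set_option maxRecDepth 1000000

namespace Cfsg.Agent.CosetEnum.M83E

theorem st : staticOK 15 iv (RL.map expand) subs P L = true := by decide +kernel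

theorem seg : Seg P L P.m 4116 :=
  ((((((((((((((((((((((Seg.nil).snoc part0).snoc part1).snoc part2).snoc part3).snoc part4).snoc part5).snoc part6).snoc part7).snoc part8).snoc part9).snoc part10).snoc part11).snoc part12).snoc part13).snoc part14).snoc part15).snoc part16).snoc part17).snoc part18).snoc part19).snoc part20).snoc part21

theorem cert : Cert 15 iv RL subs 4116 := fun g H hl hrels hsubs =>
  upper g H 15 iv hl (RL.map expand) subs hrels hsubs P L rfl st seg

end Cfsg.Agent.CosetEnum.M83E
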