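import Cfsg.Agent.CosetEnum.Step
import Cfsg.Agent.CosetEnum.M83.F7P0
import Cfsg.Agent.CosetEnum.M83.F7P1
import Cfsg.Agent.CosetEnum.M83.F7P2
import Cfsg.Agent.CosetEnum.M83.F8P0
import Cfsg.Agent.CosetEnum.M83.F9P0
import Cfsg.Agent.CosetEnum.M83.F9P1
import Cfsg.Agent.CosetEnum.M83.F9P2
import Cfsg.Agent.CosetEnum.M83.F9P3
import Cfsg.Agent.CosetEnum.M83.F9P4
import Cfsg.Agent.CosetEnum.M83.F9P5
import Cfsg.Agent.CosetEnum.M83.F9P6
import Cfsg.Agent.CosetEnum.M83.F9P7

/-! Certificates of coset enumerations and tables (generated, owner: helper28). -/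

set_option autoImplicit false
set_option maxRecDepth 1000000

namespace Cfsg.Agent.CosetEnum.M83F7

theorem st : staticOK 9 iv (RL.map expand) subs P L = true := by decide +kernel

theorem seg : Seg P L P.m 729 :=
  (((Seg.nil).snoc part0).snoc part1).snoc part2

theorem cert : Cert 9 iv RL subs 729 := fun g H hl hrels hsubs =>
  upper g H 9 iv hl (RL.map expand) subs hrels hsubs P L rfl st seg

end Cfsg.Agent.CosetEnum.M83F7
namespace Cfsg.Agent.CosetEnum.M83F8

theorem st : staticOK 11 iv (RL.map expand) subs P L = true := by decide +kernel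

theorem seg : Seg P L P.m 728 :=
  (Seg.nil).snoc part0

theorem cert : Cert 11 iv RL subs 728 := fun g H hl hrels hsubs =>
  upper g H 11 iv hl (RL.map expand) subs hrels hsubs P L rfl st seg

end Cfsg.Agent.CosetEnum.M83F8
namespace Cfsg.Agent.CosetEnum.M83F9

theorem st : staticOK 12 iv (RL.map expand) subs P L = true := by decide +kernel

theorem seg : Seg P L P.m 14080 :=
  ((((((((Seg.nil).snoc part0).snoc part1).snoc part2).snoc part3).snoc part4).snoc part5).snoc part6).snoc part7

theorem cert : Cert 12 iv RL subs 14080 := fun g H hl hrels hsubs =>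
  upper g H 12 iv hl (RL.map expand) subs hrels hsubs P L rfl st seg

end Cfsg.Agent.CosetEnum.M83F9
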