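import Cfsg.Agent.CosetEnum.Step
import Cfsg.Agent.CosetEnum.M83.GP0
import Cfsg.Agent.CosetEnum.M83.GP1
import Cfsg.Agent.CosetEnum.M83.SP0
import Cfsg.Agent.CosetEnum.M83.SP1
import Cfsg.Agent.CosetEnum.M83.SP2
import Cfsg.Agent.CosetEnum.M83.SP3
import Cfsg.Agent.CosetEnum.M83.SP4
import Cfsg.Agent.CosetEnum.M83.SP5
import Cfsg.Agent.CosetEnum.M83.SP6
import Cfsg.Agent.CosetEnum.M83.SP7
import Cfsg.Agent.CosetEnum.M83.SP8
import Cfsg.Agent.CosetEnum.M83.SP9

/-! Certificates of coset enumerations and tables (generated, owner: helper28). -/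

set_option autoImplicit false
set_option maxRecDepth 1000000

namespace Cfsg.Agent.CosetEnum.M83G

theorem st : staticOK 12 iv (RL.map expand) subs P L = true := by decide +kernel

theorem seg : Seg P L P.m 416 :=
  ((Seg.nil).snoc part0).snoc part1

theorem cert : Cert 12 iv RL subs 416 := fun g H hl hrels hsubs =>
  upper g H 12 iv hl (RL.map expand) subs hrels hsubs P L rfl st seg

end Cfsg.Agent.CosetEnum.M83G
namespace Cfsg.Agent.CosetEnum.M83S

theorem st : staticOK 14 iv (RL.map expand) subs P L = true := by decide +kernel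

theorem seg : Seg P L P.m 5346 :=
  ((((((((((Seg.nil).snoc part0).snoc part1).snoc part2).snoc part3).snoc part4).snoc part5).snoc part6).snoc part7).snoc part8).snoc part9

theorem cert : Cert 14 iv RL subs 5346 := fun g H hl hrels hsubs =>
  upper g H 14 iv hl (RL.map expand) subs hrels hsubs P L rfl st seg

end Cfsg.Agent.CosetEnum.M83S
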