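import Cfsg.Agent.CosetEnum.M83.S4Data

/-! Certificate of a coset enumeration (generated data, owner: helper28). -/

set_option autoImplicit false
set_option maxRecDepth 1000000

namespace Cfsg.Agent.CosetEnum.M83S4

def ck0 : CK := .cons 32 32 0x20010009000100010001004800080000200100090001000100010048000800002001000900010001000800401200020002001200020010048024002001 ( .cons 20 20 0x10001000100000002001000900010001000100480008000004002001200020110001000100480008 ( .nil ))

theorem part0 : chunks P L 52 ck0 0 52 = true := by decide +kernel

end Cfsg.Agent.CosetEnum.M83S4
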