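import Cfsg.Agent.CosetEnum.M83.S7Data

/-! Certificate of a coset enumeration (generated data, owner: helper28). -/

set_option autoImplicit false
set_option maxRecDepth 1000000

namespace Cfsg.Agent.CosetEnum.M83S7

def ck2 : CK := .cons 32 12 0x6100002001000020000c806400009004801990008000320190199000120090028200010808400040000800404f4d00a080003201900003880040004802400000200101410cc90808e4500110048024009ed201c850400048024000089008e4d000020010005501173a00e2061 ( .cons 4 4 0x120090008004000480240020010000640320000210108 ( .nil ))

theorem part2 : chunks P L 5092 ck2 5056 16 = true := by decide +kernel

end Cfsg.Agent.CosetEnum.M83S7
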