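import Cfsg.Agent.CosetEnum.Step
import Cfsg.Agent.CosetEnum.M83.S4P0
import Cfsg.Agent.CosetEnum.M83.S7P0
import Cfsg.Agent.CosetEnum.M83.S7P1
import Cfsg.Agent.CosetEnum.M83.S7P2
import Cfsg.Agent.CosetEnum.Level
import Cfsg.Agent.CosetEnum.M83.S1040YR0
import Cfsg.Agent.CosetEnum.M83.S1040YR1
import Cfsg.Agent.CosetEnum.M83.S1040ZR0
import Cfsg.Agent.CosetEnum.M83.S1040ZR1

/-! Certificates of coset enumerations and tables (generated, owner: helper28). -/

set_option autoImplicit false
set_option maxRecDepth 1000000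

namespace Cfsg.Agent.CosetEnum.M83S4

theorem st : staticOK 4 iv (RL.map expand) subs P L = true := by decide +kernel

theorem seg : Seg P L P.m 52 :=
  (Seg.nil).snoc part0

theorem cert : Cert 4 iv RL subs 52 := fun g H hl hrels hsubs =>
  upper g H 4 iv hl (RL.map expand) subs hrels hsubs P L rfl st seg

end Cfsg.Agent.CosetEnum.M83S4
namespace Cfsg.Agent.CosetEnum.M83S7

theorem st : staticOK 7 iv (RL.map expand) subs P L = true := by decide +kernel

theorem seg : Seg P L P.m 2240 :=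
  (((Seg.nil).snoc part0).snoc part1).snoc part2

theorem cert : Cert 7 iv RL subs 2240 := fun g H hl hrels hsubs =>
  upper g H 7 iv hl (RL.map expand) subs hrels hsubs P L rfl st seg

end Cfsg.Agent.CosetEnum.M83S7
namespace Cfsg.Agent.CosetEnum.M83S1040Y

theorem st : letsB 7 iv lets RL = true := by decide +kernel

theorem tabOK : TabOK P 7 iv lets RL := ⟨st, (Cov.of r0 rfl).trans (Cov.of r1 rfl)⟩

theorem covO : Cov (orbC P lets [] 0 P.m) 0 P.m := (Cov.of o0 rfl).trans (Cov.of o1 rfl)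

end Cfsg.Agent.CosetEnum.M83S1040Y
namespace Cfsg.Agent.CosetEnum.M83S1040Z

theorem st : letsB 7 iv lets RL = true := by decide +kernel

theorem tabOK : TabOK P 7 iv lets RL := ⟨st, (Cov.of r0 rfl).trans (Cov.of r1 rfl)⟩

theorem covO : Cov (orbC P lets [] 0 P.m) 0 P.m := (Cov.of o0 rfl).trans (Cov.of o1 rfl)

end Cfsg.Agent.CosetEnum.M83S1040Z
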