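import Cfsg.Agent.CosetEnum.M83.FM

/-! Matrices of `3.Fi₂₂` (generated data, owner: helper83). -/

set_option autoImplicit false
set_option maxRecDepth 1000000

namespace Cfsg.Agent.MRel.F27

theorem ok0 : (sc0.all (Mat2.oneB 54 (lrow2 idr Ls))) = true := by decide +kernel

end Cfsg.Agent.MRel.F27
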