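import Cfsg.Agent.CosetEnum.Fi22.T9Data

/-! Three words that are trivial in `Fi22` (generated data, owner: helper83). -/

set_option autoImplicit false
set_option maxRecDepth 1000000

namespace Cfsg.Agent.CosetEnum.M83FW

def us : List (List Nat) := [[1, 3, 8, 4, 2, 5, 7, 1, 3, 8, 4, 2, 5, 7, 1, 3, 8, 4, 2, 5, 7, 1, 3, 8, 4, 2, 5, 7, 1, 3, 8, 4, 2, 5, 7, 1, 3, 8, 4, 2, 5, 7, 1, 3, 8, 4, 2, 5, 7, 1, 3, 8, 4, 2, 5, 7, 1, 3, 8, 4, 2, 5, 7], [9, 1, 3, 4, 6, 2, 5, 9, 1, 3, 4, 6, 2, 5, 9, 1, 3, 4, 6, 2, 5, 9, 1, 3, 4, 6, 2, 5, 9, 1, 3, 4, 6, 2, 5, 9, 1, 3, 4, 6, 2, 5, 9, 1, 3, 4, 6, 2, 5, 9, 1, 3, 4, 6, 2, 5, 9, 1, 3, 4, 6, 2, 5], [1, 3, 8, 4, 6, 2, 5, 1, 3, 8, 4, 6, 2, 5, 1, 3, 8, 4, 6, 2, 5, 1, 3, 8, 4, 6, 2, 5, 1,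 3, 8, 4, 6, 2, 5, 1, 3, 8, 4, 6, 2, 5, 1, 3, 8, 4, 6, 2, 5, 1, 3, 8, 4, 6, 2, 5, 1, 3, 8, 4, 6, 2, 5]]

end Cfsg.Agent.CosetEnum.M83FW
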