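import Cfsg.Agent.CosetEnum.M83.FW

/-! Three words that are trivial in `Fi22` (generated data, owner: helper83). -/

set_option autoImplicit false
set_option maxRecDepth 1000000

namespace Cfsg.Agent.CosetEnum.M83FW

theorem c3 : allR (trivB Fi22T9.P us) 7200 2400 = true := by decide +kernel

end Cfsg.Agent.CosetEnum.M83FW
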