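import Cfsg.Agent.CosetEnum.M83.FW0
import Cfsg.Agent.CosetEnum.M83.FW1
import Cfsg.Agent.CosetEnum.M83.FW2
import Cfsg.Agent.CosetEnum.M83.FW3
import Cfsg.Agent.CosetEnum.M83.FW4
import Cfsg.Agent.CosetEnum.M83.FW5
import Cfsg.Agent.CosetEnum.Fi22.Main

/-! Three words that are trivial in `Fi22` (generated, owner: helper83). -/

set_option autoImplicit false
set_option maxRecDepth 1000000

namespace Cfsg.Agent.CosetEnum.M83FW

theorem cov : Cov (trivB Fi22T9.P us) 0 14080 :=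
  (((((Cov.of c0 rfl).trans (Cov.of c1 rfl)).trans (Cov.of c2 rfl)).trans (Cov.of c3 rfl)).trans (Cov.of c4 rfl)).trans (Cov.of c5 rfl)

end Cfsg.Agent.CosetEnum.M83FW
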