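import Cfsg.Agent.CosetEnum.M83.H6Data

/-! Certificate of a coset enumeration (generated data, owner: helper28). -/

set_option autoImplicit false
set_option maxRecDepth 1000000

namespace Cfsg.Agent.CosetEnum.M83H6

def ck0 : CK := .cons 27 27 0x4201900880640320190088044022009008800404201100c80840004012009010802403202100080088004000403200901080240020110001000804400201900190008004002009001100c808402201100880040420010008004006403200900c800c80240420090088024042019000900c80840420190088064032011004800c804402201100880640120090048044002001004802401200100080040020040020010008004 ( .nil )

theorem part0 : chunks P L 27 ck0 0 27 = true := by decide +kernel

end Cfsg.Agent.CosetEnum.M83H6
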